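import Cfsg.Agent.Lib.M22B.Data

/-!
# The exhaustive check over `M22`.
-/

set_option autoImplicit false
set_option maxRecDepth 100000

namespace Cfsg.Agent.Lib.M22B

open Cfsg.Agent.Lib.Golay

/-- A necessary condition, on the first base points, for `x r = r' x`. -/
def pre (r r' v : ℕ) : Bool :=
  Nat.beq (ge v (ge r 1)) (ge r' (ge v 1)) && Nat.beq (ge v (ge r 2)) (ge r' (ge v 2))

def centT (v r : ℕ) (c : List ℕ) : Bool :=
  !(pre r r v) || S5p.all fun s => hLet (comp v s) fun x => !(Nat.beq (comp x r) (comp r x)) || memB x c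

def ncT (v r r' : ℕ) : Bool :=
  !(pre r r' v) || S5p.all fun s => hLet (comp v s) fun x => !(Nat.beq (comp x r) (comp r' x))

def preChk (v : ℕ) : Bool :=
  Rs.all (fun e => centT v e.1 e.2) && NP.all (fun e => ncT v e.1 e.2)

def sqRare (v s : ℕ) (e : ℕ × ℕ × ℕ × List ℕ) : Bool :=
  !(Nat.beq (ge v (ge s (ge v (ge s 2)))) e.2.2.1) ||
    hLet (comp v s) fun x => !(Nat.beq (comp x x) e.1) || memB x e.2.2.2

def sqChk (v s : ℕ) : Bool :=
  hLet (ge v (ge s (ge v (ge s 1)))) fun a => Tg.all fun e => !(Nat.beq a e.2.1) || sqRare v s e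

def scan3 (u : ℕ) : Bool :=
  T4p.all fun a => hLet (comp u a) fun v => preChk v && S5p.all (sqChk v)

def scan2 (y : ℕ) : Bool :=
  T3p.all fun z => hLet (comp y z) scan3

end Cfsg.Agent.Lib.M22B
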