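import Cfsg.Agent.Lib.M22B.Chk

set_option autoImplicit false
set_option maxRecDepth 100000
set_option maxHeartbeats 0

namespace Cfsg.Agent.Lib.M22B

theorem sc0 : scan2 (T2p.getD 0 0) = true := by decide +kernel

theorem sc4 : scan2 (T2p.getD 4 0) = true := by decide +kernel

theorem sc8 : scan2 (T2p.getD 8 0) = true := by decide +kernel

theorem sc12 : scan2 (T2p.getD 12 0) = true := by decide +kernel

theorem sc16 : scan2 (T2p.getD 16 0) = true := by decide +kernel

theorem sc20 : scan2 (T2p.getD 20 0) = true := by decide +kernel

end Cfsg.Agent.Lib.M22B
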