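import Cfsg.Agent.Lib.M22B.Chk

set_option autoImplicit false
set_option maxRecDepth 100000
set_option maxHeartbeats 0

namespace Cfsg.Agent.Lib.M22B

theorem sc1 : scan2 (T2p.getD 1 0) = true := by decide +kernel

theorem sc5 : scan2 (T2p.getD 5 0) = true := by decide +kernel

theorem sc9 : scan2 (T2p.getD 9 0) = true := by decide +kernel

theorem sc13 : scan2 (T2p.getD 13 0) = true := by decide +kernel

theorem sc17 : scan2 (T2p.getD 17 0) = true := by decide +kernel

theorem sc21 : scan2 (T2p.getD 21 0) = true := by decide +kernel

end Cfsg.Agent.Lib.M22B
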