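import Cfsg.Agent.Lib.M22B.Chk

set_option autoImplicit false
set_option maxRecDepth 100000
set_option maxHeartbeats 0

namespace Cfsg.Agent.Lib.M22B

theorem sc2 : scan2 (T2p.getD 2 0) = true := by decide +kernel

theorem sc6 : scan2 (T2p.getD 6 0) = true := by decide +kernel

theorem sc10 : scan2 (T2p.getD 10 0) = true := by decide +kernel

theorem sc14 : scan2 (T2p.getD 14 0) = true := by decide +kernel

theorem sc18 : scan2 (T2p.getD 18 0) = true := by decide +kernel

end Cfsg.Agent.Lib.M22B
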