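import Cfsg.Agent.Lib.M22B.TabDefs

set_option autoImplicit false
set_option maxRecDepth 100000
set_option maxHeartbeats 0

namespace Cfsg.Agent.Lib.M22B

theorem tb0_1 : Tab0_1.all (entOK (jE 0).2.2.2.1 (jE 0).2.2.2.2) = true := by decide +kernel

theorem tb0_5 : Tab0_5.all (entOK (jE 0).2.2.2.1 (jE 0).2.2.2.2) = true := by decide +kernel

theorem tb2_0 : Tab2_0.all (entOK (jE 2).2.2.2.1 (jE 2).2.2.2.2) = true := by decide +kernel

theorem tb2_4 : Tab2_4.all (entOK (jE 2).2.2.2.1 (jE 2).2.2.2.2) = true := by decide +kernel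

theorem tb3_0 : Tab3_0.all (entOK (jE 3).2.2.2.1 (jE 3).2.2.2.2) = true := by decide +kernel

theorem tb5_3 : Tab5_3.all (entOK (jE 5).2.2.2.1 (jE 5).2.2.2.2) = true := by decide +kernel

theorem tb5_7 : Tab5_7.all (entOK (jE 5).2.2.2.1 (jE 5).2.2.2.2) = true := by decide +kernel

theorem tb7_2 : Tab7_2.all (entOK (jE 7).2.2.2.1 (jE 7).2.2.2.2) = true := by decide +kernel

theorem tb7_6 : Tab7_6.all (entOK (jE 7).2.2.2.1 (jE 7).2.2.2.2) = true := by decide +kernel

theorem tb8_2 : Tab8_2.all (entOK (jE 8).2.2.2.1 (jE 8).2.2.2.2) = true := by decide +kernel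

theorem tb8_6 : Tab8_6.all (entOK (jE 8).2.2.2.1 (jE 8).2.2.2.2) = true := by decide +kernel

theorem tb10_2 : Tab10_2.all (entOK (jE 10).2.2.2.1 (jE 10).2.2.2.2) = true := by decide +kernel

theorem tb10_6 : Tab10_6.all (entOK (jE 10).2.2.2.1 (jE 10).2.2.2.2) = true := by decide +kernel

theorem tb11_2 : Tab11_2.all (entOK (jE 11).2.2.2.1 (jE 11).2.2.2.2) = true := by decide +kernel

theorem tb11_6 : Tab11_6.all (entOK (jE 11).2.2.2.1 (jE 11).2.2.2.2) = true := by decide +kernel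

end Cfsg.Agent.Lib.M22B
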