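import Cfsg.Agent.Lib.M22B.TabDefs

set_option autoImplicit false
set_option maxRecDepth 100000
set_option maxHeartbeats 0

namespace Cfsg.Agent.Lib.M22B

theorem tb0_2 : Tab0_2.all (entOK (jE 0).2.2.2.1 (jE 0).2.2.2.2) = true := by decide +kernel

theorem tb0_6 : Tab0_6.all (entOK (jE 0).2.2.2.1 (jE 0).2.2.2.2) = true := by decide +kernel

theorem tb2_1 : Tab2_1.all (entOK (jE 2).2.2.2.1 (jE 2).2.2.2.2) = true := by decide +kernel

theorem tb2_5 : Tab2_5.all (entOK (jE 2).2.2.2.1 (jE 2).2.2.2.2) = true := by decide +kernel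

theorem tb5_0 : Tab5_0.all (entOK (jE 5).2.2.2.1 (jE 5).2.2.2.2) = true := by decide +kernel

theorem tb5_4 : Tab5_4.all (entOK (jE 5).2.2.2.1 (jE 5).2.2.2.2) = true := by decide +kernel

theorem tb6_0 : Tab6_0.all (entOK (jE 6).2.2.2.1 (jE 6).2.2.2.2) = true := by decide +kernel

theorem tb7_3 : Tab7_3.all (entOK (jE 7).2.2.2.1 (jE 7).2.2.2.2) = true := by decide +kernel

theorem tb7_7 : Tab7_7.all (entOK (jE 7).2.2.2.1 (jE 7).2.2.2.2) = true := by decide +kernel

theorem tb8_3 : Tab8_3.all (entOK (jE 8).2.2.2.1 (jE 8).2.2.2.2) = true := by decide +kernel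

theorem tb8_7 : Tab8_7.all (entOK (jE 8).2.2.2.1 (jE 8).2.2.2.2) = true := by decide +kernel

theorem tb10_3 : Tab10_3.all (entOK (jE 10).2.2.2.1 (jE 10).2.2.2.2) = true := by decide +kernel

theorem tb10_7 : Tab10_7.all (entOK (jE 10).2.2.2.1 (jE 10).2.2.2.2) = true := by decide +kernel

theorem tb11_3 : Tab11_3.all (entOK (jE 11).2.2.2.1 (jE 11).2.2.2.2) = true := by decide +kernel

theorem tb11_7 : Tab11_7.all (entOK (jE 11).2.2.2.1 (jE 11).2.2.2.2) = true := by decide +kernel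

end Cfsg.Agent.Lib.M22B
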