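import Cfsg.Agent.Lib.M22B.TabDefs

set_option autoImplicit false
set_option maxRecDepth 100000
set_option maxHeartbeats 0

namespace Cfsg.Agent.Lib.M22B

theorem tb0_3 : Tab0_3.all (entOK (jE 0).2.2.2.1 (jE 0).2.2.2.2) = true := by decide +kernel

theorem tb0_7 : Tab0_7.all (entOK (jE 0).2.2.2.1 (jE 0).2.2.2.2) = true := by decide +kernel

theorem tb2_2 : Tab2_2.all (entOK (jE 2).2.2.2.1 (jE 2).2.2.2.2) = true := by decide +kernel

theorem tb2_6 : Tab2_6.all (entOK (jE 2).2.2.2.1 (jE 2).2.2.2.2) = true := by decide +kernel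

theorem tb5_1 : Tab5_1.all (entOK (jE 5).2.2.2.1 (jE 5).2.2.2.2) = true := by decide +kernel

theorem tb5_5 : Tab5_5.all (entOK (jE 5).2.2.2.1 (jE 5).2.2.2.2) = true := by decide +kernel

theorem tb7_0 : Tab7_0.all (entOK (jE 7).2.2.2.1 (jE 7).2.2.2.2) = true := by decide +kernel

theorem tb7_4 : Tab7_4.all (entOK (jE 7).2.2.2.1 (jE 7).2.2.2.2) = true := by decide +kernel

theorem tb8_0 : Tab8_0.all (entOK (jE 8).2.2.2.1 (jE 8).2.2.2.2) = true := by decide +kernel

theorem tb8_4 : Tab8_4.all (entOK (jE 8).2.2.2.1 (jE 8).2.2.2.2) = true := by decide +kernel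

theorem tb10_0 : Tab10_0.all (entOK (jE 10).2.2.2.1 (jE 10).2.2.2.2) = true := by decide +kernel

theorem tb10_4 : Tab10_4.all (entOK (jE 10).2.2.2.1 (jE 10).2.2.2.2) = true := by decide +kernel

theorem tb11_0 : Tab11_0.all (entOK (jE 11).2.2.2.1 (jE 11).2.2.2.2) = true := by decide +kernel

theorem tb11_4 : Tab11_4.all (entOK (jE 11).2.2.2.1 (jE 11).2.2.2.2) = true := by decide +kernel

end Cfsg.Agent.Lib.M22B
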