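import Cfsg.Agent.Lib.M22B.TabC0
import Cfsg.Agent.Lib.M22B.TabC1
import Cfsg.Agent.Lib.M22B.TabC2
import Cfsg.Agent.Lib.M22B.TabC3
import Cfsg.Agent.Lib.M22B.Scan0
import Cfsg.Agent.Lib.M22B.Scan1
import Cfsg.Agent.Lib.M22B.Scan2
import Cfsg.Agent.Lib.M22B.Scan3

/-!
# The finite facts about `M22`.
-/

set_option autoImplicit false
set_option maxRecDepth 100000
set_option maxHeartbeats 0

namespace Cfsg.Agent.Lib.M22B

open Cfsg Cfsg.Agent.Lib.Golay Cfsg.Agent.Lib.M24X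

theorem T2p_range : ∀ y ∈ T2p, ∃ i, i < 22 ∧ y = T2p.getD i 0 := by decide +kernel

theorem hall : ∀ y ∈ T2p, scan2 y = true := by
  intro y hy
  obtain ⟨i, hi, rfl⟩ := T2p_range y hy
  interval_cases i
  · exact sc0
  · exact sc1
  · exact sc2
  · exact sc3
  · exact sc4
  · exact sc5
  · exact sc6
  · exact sc7
  · exact sc8
  · exact sc9
  · exact sc10
  · exact sc11
  · exact sc12
  · exact sc13
  · exact sc14
  · exact sc15
  · exact sc16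
  · exact sc17
  · exact sc18
  · exact sc19
  · exact sc20
  · exact sc21

theorem tb0 : (Tab.getD 0 []).all (entOK (jE 0).2.2.2.1 (jE 0).2.2.2.2) = true := by
  have h : Tab.getD 0 [] = Tab0_0 ++ (Tab0_1 ++ (Tab0_2 ++ (Tab0_3 ++ (Tab0_4 ++ (Tab0_5 ++ (Tab0_6 ++ (Tab0_7))))))) := rfl
  rw [h]
  simp only [List.all_append, Bool.and_eq_true]
  exact ⟨tb0_0, tb0_1, tb0_2, tb0_3, tb0_4, tb0_5, tb0_6, tb0_7⟩

theorem tb1 : (Tab.getD 1 []).all (entOK (jE 1).2.2.2.1 (jE 1).2.2.2.2) = true := by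
  exact tb1_0

theorem tb2 : (Tab.getD 2 []).all (entOK (jE 2).2.2.2.1 (jE 2).2.2.2.2) = true := by
  have h : Tab.getD 2 [] = Tab2_0 ++ (Tab2_1 ++ (Tab2_2 ++ (Tab2_3 ++ (Tab2_4 ++ (Tab2_5 ++ (Tab2_6 ++ (Tab2_7))))))) := rfl
  rw [h]
  simp only [List.all_append, Bool.and_eq_true]
  exact ⟨tb2_0, tb2_1, tb2_2, tb2_3, tb2_4, tb2_5, tb2_6, tb2_7⟩

theorem tb3 : (Tab.getD 3 []).all (entOK (jE 3).2.2.2.1 (jE 3).2.2.2.2) = true := by
  exact tb3_0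

theorem tb4 : (Tab.getD 4 []).all (entOK (jE 4).2.2.2.1 (jE 4).2.2.2.2) = true := by
  rfl

theorem tb5 : (Tab.getD 5 []).all (entOK (jE 5).2.2.2.1 (jE 5).2.2.2.2) = true := by
  have h : Tab.getD 5 [] = Tab5_0 ++ (Tab5_1 ++ (Tab5_2 ++ (Tab5_3 ++ (Tab5_4 ++ (Tab5_5 ++ (Tab5_6 ++ (Tab5_7))))))) := rfl
  rw [h]
  simp only [List.all_append, Bool.and_eq_true]
  exact ⟨tb5_0, tb5_1, tb5_2, tb5_3, tb5_4, tb5_5, tb5_6, tb5_7⟩

theorem tb6 : (Tab.getD 6 []).all (entOK (jE 6).2.2.2.1 (jE 6).2.2.2.2) = true := by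
  exact tb6_0

theorem tb7 : (Tab.getD 7 []).all (entOK (jE 7).2.2.2.1 (jE 7).2.2.2.2) = true := by
  have h : Tab.getD 7 [] = Tab7_0 ++ (Tab7_1 ++ (Tab7_2 ++ (Tab7_3 ++ (Tab7_4 ++ (Tab7_5 ++ (Tab7_6 ++ (Tab7_7))))))) := rfl
  rw [h]
  simp only [List.all_append, Bool.and_eq_true]
  exact ⟨tb7_0, tb7_1, tb7_2, tb7_3, tb7_4, tb7_5, tb7_6, tb7_7⟩

theorem tb8 : (Tab.getD 8 []).all (entOK (jE 8).2.2.2.1 (jE 8).2.2.2.2) = true := by
  have h : Tab.getD 8 [] = Tab8_0 ++ (Tab8_1 ++ (Tab8_2 ++ (Tab8_3 ++ (Tab8_4 ++ (Tab8_5 ++ (Tab8_6 ++ (Tab8_7))))))) := rfl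
  rw [h]
  simp only [List.all_append, Bool.and_eq_true]
  exact ⟨tb8_0, tb8_1, tb8_2, tb8_3, tb8_4, tb8_5, tb8_6, tb8_7⟩

theorem tb9 : (Tab.getD 9 []).all (entOK (jE 9).2.2.2.1 (jE 9).2.2.2.2) = true := by
  rfl

theorem tb10 : (Tab.getD 10 []).all (entOK (jE 10).2.2.2.1 (jE 10).2.2.2.2) = true := by
  have h : Tab.getD 10 [] = Tab10_0 ++ (Tab10_1 ++ (Tab10_2 ++ (Tab10_3 ++ (Tab10_4 ++ (Tab10_5 ++ (Tab10_6 ++ (Tab10_7))))))) := rfl
  rw [h]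
  simp only [List.all_append, Bool.and_eq_true]
  exact ⟨tb10_0, tb10_1, tb10_2, tb10_3, tb10_4, tb10_5, tb10_6, tb10_7⟩

theorem tb11 : (Tab.getD 11 []).all (entOK (jE 11).2.2.2.1 (jE 11).2.2.2.2) = true := by
  have h : Tab.getD 11 [] = Tab11_0 ++ (Tab11_1 ++ (Tab11_2 ++ (Tab11_3 ++ (Tab11_4 ++ (Tab11_5 ++ (Tab11_6 ++ (Tab11_7))))))) := rfl
  rw [h]
  simp only [List.all_append, Bool.and_eq_true]
  exact ⟨tb11_0, tb11_1, tb11_2, tb11_3, tb11_4, tb11_5, tb11_6, tb11_7⟩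

theorem tb_all (j : ℕ) (hj : j < 12) :
    (Tab.getD j []).all (entOK (jE j).2.2.2.1 (jE j).2.2.2.2) = true := by
  interval_cases j
  · exact tb0
  · exact tb1
  · exact tb2
  · exact tb3
  · exact tb4
  · exact tb5
  · exact tb6
  · exact tb7
  · exact tb8
  · exact tb9
  · exact tb10
  · exact tb11

theorem Rp_in : ∀ i, i < 12 → inB (Rp.getD i 0) = true := by decide +kernel

theorem Rp_zero : Rp.getD 0 0 = idp := by decide +kernel

theorem idp_idp : comp idp idp = idp := by decide +kernel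

/-- Data of the table at `j`. -/
theorem jE_ok : ∀ j, j < 12 →
    powP (Rp.getD j 0) (2 ^ (jE j).1 * (2 * (jE j).2.1 + 1)) = idp ∧
    powP (Rp.getD j 0) (2 * (jE j).2.1 + 1) = (jE j).2.2.2.1 ∧
    comp (jE j).2.2.2.2 (powP (Rp.getD j 0) (jE j).2.1) = idp ∧
    inB (jE j).2.2.2.2 = true ∧
    ascB ((Tab.getD j []).map Prod.fst) = true ∧
    (∃ e ∈ Tg, e.1 = (jE j).2.2.2.1 ∧ e.2.2.2 = (Tab.getD j []).map Prod.fst) := by
  decide +kernel

/-- The parities of the structure constants. -/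
theorem cnt_par : ∀ i, i < 12 → ∀ j, j < 12 →
    cnt j i % 2 = if j ∈ Od.getD i [] then 1 else 0 := by decide +kernel

/-- Two representatives are distinguished by orders or the scan. -/
def powTest (i j : ℕ) : Bool :=
  Nat.beq (powP (Rp.getD i 0) (ordL.getD i 0)) idp && !(Nat.beq (powP (Rp.getD j 0) (ordL.getD i 0)) idp)

def npTest (i j : ℕ) : Bool :=
  NP.any fun e => Nat.beq e.1 (Rp.getD i 0) && Nat.beq e.2 (Rp.getD j 0)

theorem dist_tab : ∀ i, i < 12 → ∀ j, j < 12 →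
    (Nat.beq i j || powTest i j || powTest j i || npTest i j || npTest j i) = true := by decide +kernel

theorem ord_pos : ∀ i, i < 12 → ordL.getD i 0 ≠ 0 := by decide +kernel

/-- Sizes and centraliser lists. -/
theorem size_sum : ((List.range 12).map fun i => sizeL.getD i 0).sum = 443520 := by decide +kernel

theorem Rs_tab : ∀ i, i < 11 → ∃ e ∈ Rs, e.1 = Rp.getD (i + 1) 0 ∧
    sizeL.getD (i + 1) 0 * e.2.length = 443520 := by decide +kernel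

end Cfsg.Agent.Lib.M22B
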