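import Cfsg.Agent.Lib.Blocks.Central

/-!
# Squares of class sums modulo two.

For a conjugation-closed set `K` and `t` in a finite group, the number of `x ∈ K` with `x⁻¹ t ∈ K`
is congruent modulo two to the number of `r` with `r² = t^m` and `r t^{-k} ∈ K`, where `m = 2k+1`
is odd and `t^(2^e m) = 1`.
-/

set_option autoImplicit false
set_option linter.unusedSectionVars false

namespace Cfsg.Agent.Lib.M22B

open Cfsg Cfsg.Agent.Lib.Blocks Cfsg.Agent.Lib.Char

section Parity

variable {G : Type*} [Group G] [Fintype G] [DecidableEq G]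

/-- The set of `x ∈ K` with `x⁻¹ t ∈ K`. -/
abbrev PX (K : G → Prop) (t : G) : Type _ := {x : G // K x ∧ K (x⁻¹ * t)}

/-- The map `x ↦ x⁻¹ t`. -/
def sig (K : G → Prop) (hK : ∀ x y, K x → K (y * x * y⁻¹)) (t : G) : Function.End (PX K t) :=
  fun x => ⟨x.1⁻¹ * t, x.2.2, by
    have h := hK x.1 t⁻¹ x.2.1
    have e : (x.1⁻¹ * t)⁻¹ * t = t⁻¹ * x.1 * t⁻¹⁻¹ := by group
    rw [e]
    exact h⟩

theorem sig_pow_even (K : G → Prop) (hK : ∀ x y, K x → K (y * x * y⁻¹)) (t : G) (j : ℕ) (x : PX K t) :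
    (((sig K hK t) ^ (2 * j)) x).1 = (t ^ j)⁻¹ * x.1 * t ^ j := by
  induction j with
  | zero =>
    show x.1 = _
    simp
  | succ j ih =>
    have e : (sig K hK t) ^ (2 * (j + 1)) = (sig K hK t) * (sig K hK t) * (sig K hK t) ^ (2 * j) := by
      rw [mul_add, mul_one, add_comm, pow_add, pow_two]
    rw [e]
    show ((((sig K hK t) ((sig K hK t) (((sig K hK t) ^ (2 * j)) x)))).1) = _
    simp only [sig]
    rw [ih, pow_succ]
    group

theorem sig_pow_odd (K : G → Prop) (hK : ∀ x y, K x → K (y * x * y⁻¹)) (t : G) (j : ℕ) (x : PX K t) :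
    (((sig K hK t) ^ (2 * j + 1)) x).1 = (t ^ j)⁻¹ * x.1⁻¹ * t ^ (j + 1) := by
  rw [pow_succ']
  show (((sig K hK t) (((sig K hK t) ^ (2 * j)) x))).1 = _
  simp only [sig]
  rw [sig_pow_even, pow_succ]
  group

theorem conj_aux {r a t : G} (h : r * r = t * a * a) : (r * a⁻¹)⁻¹ * t = a * (r * a⁻¹) * a⁻¹ := by
  have e : t = r * r * a⁻¹ * a⁻¹ := by rw [h]; group
  rw [e]
  group

theorem fix_aux {x a T : G} : (a⁻¹ * x⁻¹ * T = x) ↔ x * a * (x * a) = T * a := by
  constructor
  · intro h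
    have : T = x * a * (a⁻¹ * x⁻¹ * T) := by group
    rw [h] at this
    rw [this]
    group
  · intro h
    have h2 : x * a * x = T := by
      apply mul_right_cancel (b := a)
      rw [← h]
      group
    rw [← h2]
    group

theorem parity_count (K : G → Prop) [DecidablePred K] (hK : ∀ x y, K x → K (y * x * y⁻¹)) (t : G)
    (e k : ℕ) (ht : t ^ (2 ^ e * (2 * k + 1)) = 1) :
    (Finset.univ.filter fun x : G => K x ∧ K (x⁻¹ * t)).card ≡
      (Finset.univ.filter fun r : G => r ^ 2 = t ^ (2 * k + 1) ∧ K (r * (t ^ k)⁻¹)).card [MOD 2] := by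
  classical
  have : Fact (Nat.Prime 2) := ⟨Nat.prime_two⟩
  set σ := sig K hK t with hσ
  set τ : Function.End (PX K t) := σ ^ (2 * k + 1) with hτ
  have hτp : τ ^ 2 ^ (e + 1) = 1 := by
    rw [hτ, ← pow_mul]
    have h2 : (2 * k + 1) * 2 ^ (e + 1) = 2 * (2 ^ e * (2 * k + 1)) := by ring
    rw [h2]
    funext x
    apply Subtype.ext
    rw [sig_pow_even, ht]
    simp only [inv_one, one_mul, mul_one]
    rfl
  have h := Equiv.Perm.card_fixedPoints_modEq (f := τ) (p := 2) (n := e + 1) hτp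
  have h1 : Fintype.card (PX K t) = (Finset.univ.filter fun x : G => K x ∧ K (x⁻¹ * t)).card :=
    Fintype.card_subtype _
  rw [h1] at h
  refine h.trans ?_
  have e2 : t ^ (2 * k + 1) = t ^ (k + 1) * t ^ k := by
    rw [← pow_add]; congr 1; ring
  have hfix : ∀ x : PX K t, τ x = x ↔ (x.1 * t ^ k) ^ 2 = t ^ (2 * k + 1) := by
    intro x
    have hv : (τ x).1 = (t ^ k)⁻¹ * x.1⁻¹ * t ^ (k + 1) := sig_pow_odd K hK t k x
    rw [Subtype.ext_iff, hv, e2, pow_two]
    exact fix_aux
  have h3 : (Finset.univ.filter fun r : G => r ^ 2 = t ^ (2 * k + 1) ∧ K (r * (t ^ k)⁻¹)).card =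
      Fintype.card {r : G // r ^ 2 = t ^ (2 * k + 1) ∧ K (r * (t ^ k)⁻¹)} :=
    (Fintype.card_subtype _).symm
  rw [h3]
  have hK2 : ∀ r : {r : G // r ^ 2 = t ^ (2 * k + 1) ∧ K (r * (t ^ k)⁻¹)},
      K ((r.1 * (t ^ k)⁻¹)⁻¹ * t) := by
    intro r
    have h4 : r.1 * r.1 = t * t ^ k * t ^ k := by
      rw [← pow_two, r.2.1, mul_assoc, ← pow_add, ← pow_succ']
      congr 1
      ring
    rw [conj_aux h4]
    exact hK _ _ r.2.2
  let E : τ.fixedPoints ≃ {r : G // r ^ 2 = t ^ (2 * k + 1) ∧ K (r * (t ^ k)⁻¹)} :=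
    { toFun := fun x => ⟨x.1.1 * t ^ k, (hfix x.1).1 x.2, by simpa using x.1.2.1⟩
      invFun := fun r => ⟨⟨r.1 * (t ^ k)⁻¹, r.2.2, hK2 r⟩, (hfix _).2 (by simpa using r.2.1)⟩
      left_inv := by
        intro x
        apply Subtype.ext
        apply Subtype.ext
        simp
      right_inv := by
        intro r
        apply Subtype.ext
        simp }
  show _ % 2 = _ % 2
  rw [Fintype.card_congr E]

end Parity

section Central

variable {G : Type*} [Group G] [Fintype G]

open scoped Classical in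
/-- The structure constants of the square of a class sum. -/
noncomputable def NN (g t : G) : ℕ :=
  (Finset.univ.filter fun x : G => IsConj g x ∧ IsConj g (x⁻¹ * t)).card

theorem conv_cls (g t : G) : conv (cls g) (cls g) t = (NN g t : ℂ) := by
  classical
  unfold conv NN
  rw [Finset.card_filter, Nat.cast_sum]
  refine Finset.sum_congr rfl fun x _ => ?_
  simp only [cls]
  by_cases h1 : IsConj g x <;> by_cases h2 : IsConj g (x⁻¹ * t) <;>
    simp only [h1, h2, if_true, if_false, and_true, and_false, false_and, true_and, mul_one,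
      mul_zero, zero_mul, Nat.cast_one, Nat.cast_zero]

theorem NN_congr (g : G) {s t : G} (h : IsConj s t) : NN g s = NN g t := by
  have h1 : conv (cls g) (cls g) s = conv (cls g) (cls g) t :=
    IsClassFunction.congr_isConj (conv_isClassFunction (cls_isClassFunction g) (cls_isClassFunction g)) h
  rw [conv_cls, conv_cls] at h1
  exact_mod_cast h1

theorem centralChar_sq {n : ℕ} (χ : IrrCharacter G) (g : G) (R : Fin n → G)
    (hcov : ∀ x, ∃ i, IsConj (R i) x) (hdist : ∀ i j, IsConj (R i) (R j) → i = j) :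
    centralChar (χ : G → ℂ) g ^ 2 = ∑ i, (NN g (R i) : ℂ) * centralChar (χ : G → ℂ) (R i) := by
  classical
  have h1 := congrFun (spec_conv (cls g) (cls g) (cls_isClassFunction g)) χ
  simp only [Pi.mul_apply, spec_cls] at h1
  rw [pow_two, ← h1, spec_eq_sum_classes _ (conv_isClassFunction (cls_isClassFunction g)
      (cls_isClassFunction g))]
  symm
  apply Fintype.sum_bijective (fun i => ConjClasses.mk (R i))
  · constructor
    · intro i j hij
      exact hdist i j (ConjClasses.mk_eq_mk_iff_isConj.mp hij)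
    · intro K
      obtain ⟨x, rfl⟩ := K.exists_rep
      obtain ⟨i, hi⟩ := hcov x
      exact ⟨i, ConjClasses.mk_eq_mk_iff_isConj.mpr hi⟩
  · intro i
    have h2 : IsConj (clsRep (ConjClasses.mk (R i))) (R i) :=
      ConjClasses.mk_eq_mk_iff_isConj.mp (mk_clsRep _)
    rw [conv_cls, NN_congr g h2, centralChar_eq_of_isConj χ h2]

theorem sq_mod {n : ℕ} {M : Ideal AlgInt} (hM : IsPModular 2 M) (χ : IrrCharacter G) (g : G) (R : Fin n → G)
    (hcov : ∀ x, ∃ i, IsConj (R i) x) (hdist : ∀ i j, IsConj (R i) (R j) → i = j) :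
    MemLocalIdeal M (centralChar (χ : G → ℂ) g ^ 2 -
      ∑ i, ((NN g (R i) % 2 : ℕ) : ℂ) * centralChar (χ : G → ℂ) (R i)) := by
  have := isPrime_of_modular hM
  rw [centralChar_sq χ g R hcov hdist, ← Finset.sum_sub_distrib]
  refine MemLocalIdeal.sum _ fun i _ => ?_
  have e : ((NN g (R i) : ℕ) : ℂ) * centralChar (χ : G → ℂ) (R i) -
      ((NN g (R i) % 2 : ℕ) : ℂ) * centralChar (χ : G → ℂ) (R i) =
      ((2 : ℕ) : ℂ) * (((NN g (R i) / 2 : ℕ) : ℂ) * centralChar (χ : G → ℂ) (R i)) := by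
    have h3 : ((NN g (R i) : ℕ) : ℂ) = ((2 : ℕ) : ℂ) * ((NN g (R i) / 2 : ℕ) : ℂ) +
        ((NN g (R i) % 2 : ℕ) : ℂ) := by
      exact_mod_cast (Nat.div_add_mod (NN g (R i)) 2).symm
    rw [h3]
    ring
  rw [e]
  exact MemLocalIdeal.mul_right (p_memLocalIdeal hM)
    (MemLocalRing.mul (MemLocalRing.natCast _) (memLocalRing_of_isIntegral (isIntegral_centralChar χ _)))

end Central

end Cfsg.Agent.Lib.M22B
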