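import Cfsg.Agent.Lib.M22B.Facts
import Cfsg.Agent.Lib.M22B.Generic
import Cfsg.Agent.Lib.Golay.Transfer

/-!
# `M22` has a single 2-block.
-/

set_option autoImplicit false
set_option maxRecDepth 100000
set_option linter.unusedSectionVars false

namespace Cfsg.Agent.Lib.M22B

open Cfsg Cfsg.Agent.Lib.Golay Cfsg.Agent.Lib.M24X Cfsg.Agent.Lib.Blocks Cfsg.Agent.Lib.Char

/-- The group. -/
abbrev GG : Type := ↥Spor.M22

noncomputable instance instFintypeGG : Fintype GG := Fintype.ofFinite GG

/-- The element of a packed number. -/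
noncomputable def el (p : ℕ) : GG := if h : inB p = true then ⟨Phi p, mem_of_inB h⟩ else 1

theorem coe_el {p : ℕ} (h : inB p = true) : ((el p : GG) : Equiv.Perm GolayPt) = Phi p := by
  simp [el, h]

/-- The class representatives. -/
noncomputable def R (i : Fin 12) : GG := el (Rp.getD i 0)

theorem coe_R (i : Fin 12) : ((R i : GG) : Equiv.Perm GolayPt) = Phi (Rp.getD i 0) :=
  coe_el (Rp_in i i.2)

theorem val_R (i : Fin 12) : Val (Rp.getD i 0) := val_of_inB (Rp_in i i.2)

theorem Phi_powP {r : ℕ} (h : Val r) (n : ℕ) : Phi (powP r n) = (Phi r) ^ n ∧ Val (powP r n) := by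
  induction n with
  | zero => exact ⟨by rw [pow_zero]; exact Phi_idp, val_idp⟩
  | succ n ih =>
    refine ⟨?_, val_comp ih.2 h⟩
    show Phi (comp (powP r n) r) = _
    rw [Phi_comp ih.2 h, ih.1, pow_succ]

theorem coe_pow_R (i : Fin 12) (n : ℕ) :
    (((R i) ^ n : GG) : Equiv.Perm GolayPt) = Phi (powP (Rp.getD i 0) n) := by
  rw [SubgroupClass.coe_pow, coe_R, (Phi_powP (val_R i) n).1]

theorem powP_eq_idp {r n : ℕ} (h : Val r) (hn : n ≠ 0) (h1 : Phi (powP r n) = 1) : powP r n = idp := by
  obtain ⟨m, rfl⟩ := Nat.exists_eq_succ_of_ne_zero hn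
  have vm := (Phi_powP h m).2
  show comp (powP r m) r = idp
  rw [← idp_idp]
  apply comp_of_mul_eq vm h val_idp val_idp
  rw [Phi_idp, mul_one, ← Phi_comp vm h]
  exact h1

theorem pow_sep (i j : Fin 12) (h : powTest i j = true) : ¬ IsConj (R i) (R j) := by
  unfold powTest at h
  simp only [Bool.and_eq_true, Bool.not_eq_true'] at h
  obtain ⟨h1, h2⟩ := h
  intro hc
  have e1 : (R i) ^ (ordL.getD i 0) = 1 := by
    apply Subtype.ext
    rw [coe_pow_R, Nat.eq_of_beq_eq_true h1, Phi_idp]
    rfl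
  have e2 : (R j) ^ (ordL.getD i 0) = 1 := by
    have := hc.pow (ordL.getD i 0)
    rw [e1] at this
    exact isConj_one_right.mp this
  have e3 : Phi (powP (Rp.getD j 0) (ordL.getD i 0)) = 1 := by
    rw [← coe_pow_R, e2]
    rfl
  have e4 := powP_eq_idp (val_R j) (ord_pos i i.2) e3
  rw [e4, Nat.beq_refl] at h2
  exact Bool.noConfusion h2

theorem np_sep (i j : Fin 12) (h : npTest i j = true) : ¬ IsConj (R i) (R j) := by
  unfold npTest at h
  obtain ⟨e, he, h3⟩ := List.any_eq_true.mp h
  simp only [Bool.and_eq_true] at h3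
  intro hc
  obtain ⟨c, hc⟩ := isConj_iff.mp hc
  have h4 : c * R i = R j * c := by
    rw [← hc]
    group
  have h5 := congrArg (fun x : GG => (x : Equiv.Perm GolayPt)) h4
  simp only [Subgroup.coe_mul, coe_R] at h5
  apply nc_sound hall c.2 he
  rw [Nat.eq_of_beq_eq_true h3.1, Nat.eq_of_beq_eq_true h3.2]
  exact h5

theorem R_dist (i j : Fin 12) (hc : IsConj (R i) (R j)) : i = j := by
  have t := dist_tab i i.2 j j.2
  simp only [Bool.or_eq_true] at t
  rcases t with ((((h | h) | h) | h) | h)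
  · exact Fin.ext (Nat.eq_of_beq_eq_true h)
  · exact absurd hc (pow_sep i j h)
  · exact absurd hc.symm (pow_sep j i h)
  · exact absurd hc (np_sep i j h)
  · exact absurd hc.symm (np_sep j i h)

theorem card_GG : Nat.card GG = 443520 := by
  have h := card_two_point (none : GolayPt) (some 0) (by simp)
  rw [← h]
  have hmap : Spor.M22 = (MulAction.stabilizer M24 (none : GolayPt) ⊓
      MulAction.stabilizer M24 (some 0 : GolayPt)).map M24.subtype := by
    have h23 : pt 23 = (none : GolayPt) := by decide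
    have h0 : pt 0 = (some 0 : GolayPt) := by decide
    ext x
    rw [mem_M22_iff, h23, h0, Subgroup.mem_map]
    constructor
    · rintro ⟨hm, h1, h2⟩
      exact ⟨⟨x, hm⟩, ⟨h1, h2⟩, rfl⟩
    · rintro ⟨y, ⟨h1, h2⟩, rfl⟩
      exact ⟨y.2, h1, h2⟩
  calc Nat.card GG = Nat.card ↥((MulAction.stabilizer M24 (none : GolayPt) ⊓
        MulAction.stabilizer M24 (some 0 : GolayPt)).map M24.subtype) := by rw [← hmap]
    _ = _ := (Nat.card_congr (Subgroup.equivMapOfInjective _ _ M24.subtype_injective).toEquiv).symm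

theorem cent_le (i : ℕ) (hi : i < 11) :
    ∃ n : ℕ, Nat.card (Subgroup.centralizer ({R ⟨i + 1, by omega⟩} : Set GG)) ≤ n ∧
      sizeL.getD (i + 1) 0 * n = 443520 := by
  classical
  obtain ⟨e, he, h1, h2⟩ := Rs_tab i hi
  refine ⟨e.2.length, ?_, h2⟩
  have hc : ∀ g : Subgroup.centralizer ({R ⟨i + 1, by omega⟩} : Set GG),
      (g.1 : Equiv.Perm GolayPt) ∈ (e.2.map Phi).toFinset := by
    intro g
    have hg := Subgroup.mem_centralizer_iff.mp g.2 (R ⟨i + 1, by omega⟩) rfl
    have h3 := congrArg (fun x : GG => (x : Equiv.Perm GolayPt)) hg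
    simp only [Subgroup.coe_mul, coe_R] at h3
    rw [← h1] at h3
    obtain ⟨p, hp, hg2⟩ := cent_sound hall g.1.2 he h3.symm
    rw [List.mem_toFinset]
    exact List.mem_map.mpr ⟨p, hp, hg2.symm⟩
  rw [Nat.card_eq_fintype_card, ← Finset.card_univ]
  calc (Finset.univ : Finset (Subgroup.centralizer ({R ⟨i + 1, by omega⟩} : Set GG))).card
      ≤ (e.2.map Phi).toFinset.card := by
        apply Finset.card_le_card_of_injOn (fun g => (g.1 : Equiv.Perm GolayPt)) (fun g _ => hc g)
        intro a _ b _ hab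
        exact Subtype.ext (Subtype.ext hab)
    _ ≤ (e.2.map Phi).length := List.toFinset_card_le _
    _ = e.2.length := List.length_map _

theorem size_le (i : Fin 12) : sizeL.getD i 0 ≤ Nat.card {x : GG // IsConj (R i) x} := by
  obtain ⟨i, hi⟩ := i
  cases i with
  | zero =>
    have : Nonempty {x : GG // IsConj (R ⟨0, hi⟩) x} := ⟨⟨_, IsConj.refl _⟩⟩
    exact Nat.card_pos
  | succ k =>
    obtain ⟨n, h1, h2⟩ := cent_le k (by omega)
    have hc := card_conj_mul_card_centralizer (R ⟨k + 1, hi⟩)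
    rw [card_GG] at hc
    have hpos : 0 < Nat.card (Subgroup.centralizer ({R ⟨k + 1, hi⟩} : Set GG)) := Nat.card_pos
    apply Nat.le_of_mul_le_mul_right _ hpos
    rw [hc, ← h2]
    exact Nat.mul_le_mul_left _ h1

theorem size_sum_fin : (∑ i : Fin 12, sizeL.getD i 0) = 443520 := by decide +kernel

theorem R_cov (x : GG) : ∃ i, IsConj (R i) x := by
  classical
  let S : Fin 12 → Finset GG := fun i => Finset.univ.filter fun y => IsConj (R i) y
  have hd : (↑(Finset.univ : Finset (Fin 12)) : Set (Fin 12)).PairwiseDisjoint S := by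
    intro i _ j _ hij
    refine Finset.disjoint_left.mpr fun y hi hj => hij ?_
    simp only [S, Finset.mem_filter, Finset.mem_univ, true_and] at hi hj
    exact R_dist i j (hi.trans hj.symm)
  have hcard : (Finset.univ.biUnion S).card = Fintype.card GG := by
    apply le_antisymm (Finset.card_le_univ _)
    rw [Finset.card_biUnion hd, ← Nat.card_eq_fintype_card, card_GG, ← size_sum_fin]
    apply Finset.sum_le_sum
    intro i _
    have := size_le i
    rw [Nat.card_eq_fintype_card, Fintype.card_subtype] at this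
    exact this
  have := Finset.eq_univ_of_card _ hcard
  have hx : x ∈ Finset.univ.biUnion S := by
    rw [this]
    exact Finset.mem_univ _
  obtain ⟨i, -, hi⟩ := Finset.mem_biUnion.mp hx
  exact ⟨i, (Finset.mem_filter.mp hi).2⟩

end Cfsg.Agent.Lib.M22B
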