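import Cfsg.Agent.Lib.M22B.Main

/-!
# `M22` has a single 2-block: the parities.
-/

set_option autoImplicit false
set_option maxRecDepth 100000
set_option linter.unusedSectionVars false

namespace Cfsg.Agent.Lib.M22B

open Cfsg Cfsg.Agent.Lib.Golay Cfsg.Agent.Lib.M24X Cfsg.Agent.Lib.Blocks Cfsg.Agent.Lib.Char

theorem entOK_spec {tg V : ℕ} {x : ℕ × ℕ × ℕ} (h : entOK tg V x = true) :
    inB x.1 = true ∧ inB x.2.2 = true ∧ comp x.1 x.1 = tg ∧
      comp x.2.2 (Rp.getD x.2.1 0) = comp (comp x.1 V) x.2.2 ∧ x.2.1 < 12 ∧ comp x.1 idp = x.1 := by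
  unfold entOK at h
  simp only [Bool.and_eq_true, Nat.beq_eq, Nat.blt_eq] at h
  obtain ⟨⟨⟨⟨⟨h1, h2⟩, h3⟩, h4⟩, h5⟩, h6⟩ := h
  rw [idn_eq] at h6
  exact ⟨h1, h2, h3, h4, h5, h6⟩

theorem N_par (i j : Fin 12) :
    NN (R i) (R j) % 2 = if j.1 ∈ Od.getD i.1 [] then 1 else 0 := by
  classical
  obtain ⟨h1, h2, h3, h4, h5, e, he, he1, he2⟩ := jE_ok j j.2
  have htb := tb_all j j.2
  have hpar0 := cnt_par i i.2 j j.2
  unfold cnt at hpar0
  generalize hr0 : Rp.getD j.1 0 = r0 at *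
  generalize hk : (jE j.1).2.1 = k at *
  generalize hE0 : (jE j.1).1 = E0 at *
  generalize htg : (jE j.1).2.2.2.1 = tg at *
  generalize hV : (jE j.1).2.2.2.2 = V at *
  generalize hT : Tab.getD j.1 [] = T at *
  have vr0 : Val r0 := hr0 ▸ val_R j
  have coeR : ∀ n, (((R j) ^ n : GG) : Equiv.Perm GolayPt) = Phi (powP r0 n) := by
    intro n
    rw [coe_pow_R, hr0]
  have ht : (R j) ^ (2 ^ E0 * (2 * k + 1)) = 1 := by
    apply Subtype.ext
    rw [coeR, h1, Phi_idp]
    rfl
  have hK : ∀ x y : GG, IsConj (R i) x → IsConj (R i) (y * x * y⁻¹) :=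
    fun x y h => h.trans (isConj_iff.mpr ⟨y, rfl⟩)
  have hpar := parity_count (IsConj (R i)) hK (R j) E0 k ht
  have vV : Val V := val_of_inB h4
  have hVc : (((((R j) ^ k)⁻¹ : GG)) : Equiv.Perm GolayPt) = Phi V := by
    rw [Subgroup.coe_inv, coeR]
    have vp := (Phi_powP vr0 k).2
    have h6 : Phi V * Phi (powP r0 k) = 1 := by
      rw [← Phi_comp vV vp, h3, Phi_idp]
    exact (eq_inv_of_mul_eq_one_left h6).symm
  have htgc : (((R j) ^ (2 * k + 1) : GG) : Equiv.Perm GolayPt) = Phi tg := by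
    rw [coeR, h2]
  have hent : ∀ x ∈ T, _ := fun x hx => entOK_spec (List.all_eq_true.mp htb x hx)
  -- entries
  have hsq : ∀ x ∈ T, (el x.1) ^ 2 = (R j) ^ (2 * k + 1) := by
    intro x hx
    obtain ⟨a1, a2, a3, a4, a5, a6⟩ := hent x hx
    apply Subtype.ext
    rw [htgc, ← a3, Phi_comp (val_of_inB a1) (val_of_inB a1), pow_two, Subgroup.coe_mul, coe_el a1]
  have hcj : ∀ x ∈ T, ∀ hx2 : x.2.1 < 12, IsConj (R ⟨x.2.1, hx2⟩) (el x.1 * ((R j) ^ k)⁻¹) := by
    intro x hx hx2
    obtain ⟨a1, a2, a3, a4, a5, a6⟩ := hent x hx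
    refine isConj_iff.mpr ⟨el x.2.2, ?_⟩
    rw [mul_inv_eq_iff_eq_mul]
    apply Subtype.ext
    simp only [Subgroup.coe_mul]
    rw [coe_el a2, coe_R, hVc, coe_el a1]
    have vw := val_of_inB a2
    have vs := val_of_inB a1
    have vr := val_R ⟨x.2.1, hx2⟩
    have h7 := congrArg Phi a4
    rw [Phi_comp vw vr, Phi_comp (val_comp vs vV) vw, Phi_comp vs vV] at h7
    exact h7
  -- the count
  let A := T.filter fun x => Nat.beq x.2.1 i
  have hnd : (A.map fun x => el x.1).Nodup := by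
    have h8 : (A.map Prod.fst).Nodup := (ascB_nodup h5).sublist ((List.filter_sublist).map _)
    have h9 : (A.map fun x => el x.1) = (A.map Prod.fst).map el := by
      rw [List.map_map]
      rfl
    rw [h9]
    refine List.Nodup.map_on ?_ h8
    intro a ha b hb hab
    obtain ⟨x, hx, rfl⟩ := List.mem_map.mp ha
    obtain ⟨y, hy, rfl⟩ := List.mem_map.mp hb
    have hx' := (List.mem_filter.mp hx).1
    have hy' := (List.mem_filter.mp hy).1
    obtain ⟨a1, -, -, -, -, a6⟩ := hent x hx'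
    obtain ⟨b1, -, -, -, -, b6⟩ := hent y hy'
    have h10 := congrArg (fun g : GG => (g : Equiv.Perm GolayPt)) hab
    simp only [coe_el a1, coe_el b1] at h10
    rw [← a6, ← b6]
    exact comp_of_mul_eq (val_of_inB a1) val_idp (val_of_inB b1) val_idp (by rw [h10])
  have hS : (Finset.univ.filter fun r : GG => r ^ 2 = (R j) ^ (2 * k + 1) ∧
      IsConj (R i) (r * ((R j) ^ k)⁻¹)) = (A.map fun x => el x.1).toFinset := by
    ext g
    simp only [Finset.mem_filter, Finset.mem_univ, true_and, List.mem_toFinset]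
    constructor
    · rintro ⟨g1, g2⟩
      have h11 : (g : Equiv.Perm GolayPt) * g = Phi e.1 := by
        rw [he1, ← htgc, ← g1, pow_two]
        rfl
      obtain ⟨p, hp, hgp⟩ := sq_sound hall g.2 he h11
      rw [he2] at hp
      obtain ⟨x, hx, rfl⟩ := List.mem_map.mp hp
      obtain ⟨a1, -, -, -, a5, -⟩ := hent x hx
      have hgx : g = el x.1 := by
        apply Subtype.ext
        rw [coe_el a1]
        exact hgp
      have h12 := hcj x hx a5
      rw [← hgx] at h12
      have h13 := R_dist _ _ (g2.trans h12.symm)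
      refine List.mem_map.mpr ⟨x, List.mem_filter.mpr ⟨hx, ?_⟩, hgx.symm⟩
      have h14 : i.1 = x.2.1 := congrArg Fin.val h13
      rw [← h14]
      exact Nat.beq_refl _
    · intro hg
      obtain ⟨x, hx, rfl⟩ := List.mem_map.mp hg
      obtain ⟨hx1, hx2⟩ := List.mem_filter.mp hx
      obtain ⟨-, -, -, -, a5, -⟩ := hent x hx1
      refine ⟨hsq x hx1, ?_⟩
      have h15 := hcj x hx1 a5
      have h16 : (⟨x.2.1, a5⟩ : Fin 12) = i := Fin.ext (Nat.eq_of_beq_eq_true hx2)
      rwa [h16] at h15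
  have hNN : NN (R i) (R j) = (Finset.univ.filter fun x : GG => IsConj (R i) x ∧ IsConj (R i) (x⁻¹ * R j)).card := by
    unfold NN
    congr
  have hpar1 : (Finset.univ.filter fun r : GG => r ^ 2 = (R j) ^ (2 * k + 1) ∧
      IsConj (R i) (r * ((R j) ^ k)⁻¹)).card = (T.filter fun x => Nat.beq x.2.1 i).length := by
    rw [hS, List.toFinset_card_of_nodup hnd, List.length_map]
  rw [hNN]
  have hpar2 : (Finset.univ.filter fun x : GG => IsConj (R i) x ∧ IsConj (R i) (x⁻¹ * R j)).card % 2 =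
      (Finset.univ.filter fun r : GG => r ^ 2 = (R j) ^ (2 * k + 1) ∧
        IsConj (R i) (r * ((R j) ^ k)⁻¹)).card % 2 := by
    have hpar' : _ % 2 = _ % 2 := hpar
    convert hpar' using 2
  rw [hpar2, hpar1]
  exact hpar0

section Final

variable {M : Ideal AlgInt} (hM : IsPModular 2 M) (χ : IrrCharacter GG)
include hM

theorem row (i : Fin 12) (S : Finset (Fin 12)) (hS : ∀ j : Fin 12, j.1 ∈ Od.getD i.1 [] ↔ j ∈ S) :
    MemLocalIdeal M (centralChar (χ : GG → ℂ) (R i) ^ 2 - ∑ j ∈ S, centralChar (χ : GG → ℂ) (R j)) := by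
  classical
  have h := sq_mod hM χ (R i) R R_cov R_dist
  have e : ∑ j, ((NN (R i) (R j) % 2 : ℕ) : ℂ) * centralChar (χ : GG → ℂ) (R j) =
      ∑ j ∈ S, centralChar (χ : GG → ℂ) (R j) := by
    have h1 : ∀ j, ((NN (R i) (R j) % 2 : ℕ) : ℂ) * centralChar (χ : GG → ℂ) (R j) =
        if j ∈ S then centralChar (χ : GG → ℂ) (R j) else 0 := by
      intro j
      rw [N_par]
      by_cases hj : j ∈ S
      · rw [if_pos ((hS j).2 hj), if_pos hj]
        simp
      · rw [if_neg (fun h => hj ((hS j).1 h)), if_neg hj]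
        simp
    simp_rw [h1]
    rw [Finset.sum_ite_mem, Finset.univ_inter]
  rwa [e] at h

theorem loc (g : GG) : MemLocalRing M (centralChar (χ : GG → ℂ) g) :=
  have := isPrime_of_modular hM
  memLocalRing_of_isIntegral (isIntegral_centralChar χ g)

theorem zero_row (i : Fin 12) (hi : Od.getD i.1 [] = []) :
    MemLocalIdeal M (centralChar (χ : GG → ℂ) (R i)) := by
  have := isPrime_of_modular hM
  have h := row hM χ i ∅ (by intro j; rw [hi]; simp)
  simp only [Finset.sum_empty, sub_zero] at h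
  exact MemLocalIdeal.of_pow (loc hM χ _) h

theorem c5 : MemLocalIdeal M (centralChar (χ : GG → ℂ) (R 5)) := zero_row hM χ 5 (by decide)

theorem c_big (i : Fin 12) (hi : 2 ≤ i.1) : MemLocalIdeal M (centralChar (χ : GG → ℂ) (R i)) := by
  have := isPrime_of_modular hM
  have h0 : i ∈ ({2, 3, 4, 5, 6, 7, 8, 9, 10, 11} : Finset (Fin 12)) := by
    revert i
    decide
  have c10 := zero_row hM χ 10 (by decide)
  have c11 := zero_row hM χ 11 (by decide)
  have two : ∀ k : Fin 12, (∀ j : Fin 12, j.1 ∈ Od.getD k.1 [] ↔ j ∈ ({10, 11} : Finset (Fin 12))) →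
      MemLocalIdeal M (centralChar (χ : GG → ℂ) (R k)) := by
    intro k hk
    have h := row hM χ k {10, 11} hk
    rw [Finset.sum_pair (by decide)] at h
    have h2 := MemLocalIdeal.add h (MemLocalIdeal.add c10 c11)
    rw [sub_add_cancel] at h2
    exact MemLocalIdeal.of_pow (loc hM χ _) h2
  simp only [Finset.mem_insert, Finset.mem_singleton] at h0
  rcases h0 with rfl | rfl | rfl | rfl | rfl | rfl | rfl | rfl | rfl | rfl
  · exact two 2 (by decide)
  · have h := row hM χ 3 {5} (by decide)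
    rw [Finset.sum_singleton] at h
    have h2 := MemLocalIdeal.add h (c5 hM χ)
    rw [sub_add_cancel] at h2
    exact MemLocalIdeal.of_pow (loc hM χ _) h2
  · exact zero_row hM χ 4 (by decide)
  · exact c5 hM χ
  · exact two 6 (by decide)
  · exact zero_row hM χ 7 (by decide)
  · exact zero_row hM χ 8 (by decide)
  · exact zero_row hM χ 9 (by decide)
  · exact c10
  · exact c11

theorem R_zero : R 0 = 1 := by
  apply Subtype.ext
  rw [coe_R]
  show Phi (Rp.getD 0 0) = 1
  rw [Rp_zero, Phi_idp]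

theorem c_zero : centralChar (χ : GG → ℂ) (R 0) = 1 := by
  rw [R_zero hM]
  exact centralChar_one χ

theorem c_one : MemLocalIdeal M (centralChar (χ : GG → ℂ) (R 1) - 1) := by
  have := isPrime_of_modular hM
  have h := row hM χ 1 {0, 5} (by decide)
  rw [Finset.sum_pair (by decide), c_zero hM χ] at h
  have h2 := MemLocalIdeal.add h (c5 hM χ)
  have h3 : centralChar (χ : GG → ℂ) (R 1) ^ 2 - (1 + centralChar (χ : GG → ℂ) (R 5)) +
      centralChar (χ : GG → ℂ) (R 5) = centralChar (χ : GG → ℂ) (R 1) ^ 2 - 1 := by ring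
  rw [h3] at h2
  have h4 : (centralChar (χ : GG → ℂ) (R 1) - 1) ^ 2 = (centralChar (χ : GG → ℂ) (R 1) ^ 2 - 1) -
      ((2 : ℕ) : ℂ) * (centralChar (χ : GG → ℂ) (R 1) - 1) := by
    push_cast
    ring
  have h5 : MemLocalIdeal M ((centralChar (χ : GG → ℂ) (R 1) - 1) ^ 2) := by
    rw [h4]
    refine MemLocalIdeal.sub h2 (MemLocalIdeal.mul_right (p_memLocalIdeal hM) ?_)
    exact MemLocalRing.sub (loc hM χ _) memLocalRing_one
  exact MemLocalIdeal.of_pow (MemLocalRing.sub (loc hM χ _) memLocalRing_one) h5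

end Final

theorem sameBlock {M : Ideal AlgInt} (hM : IsPModular 2 M) (χ ψ : IrrCharacter GG) :
    SameBlock M (χ : GG → ℂ) (ψ : GG → ℂ) := by
  have := isPrime_of_modular hM
  intro g
  obtain ⟨i, hi⟩ := R_cov g
  rw [← centralChar_eq_of_isConj χ hi, ← centralChar_eq_of_isConj ψ hi]
  obtain ⟨n, hn⟩ := i
  match n, hn with
  | 0, h0 =>
    have e1 := c_zero hM χ
    have e2 := c_zero hM ψ
    show MemLocalIdeal M (centralChar (χ : GG → ℂ) (R 0) - centralChar (ψ : GG → ℂ) (R 0))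
    rw [e1, e2, sub_self]
    exact memLocalIdeal_zero
  | 1, h1 =>
    have e1 := c_one hM χ
    have e2 := c_one hM ψ
    have e3 := MemLocalIdeal.sub e1 e2
    rw [sub_sub_sub_cancel_right] at e3
    exact e3
  | n + 2, h2 =>
    exact MemLocalIdeal.sub (c_big hM χ _ (by simp)) (c_big hM ψ _ (by simp))

end Cfsg.Agent.Lib.M22B
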