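import Cfsg.Agent.Lib.M24X.Basic
import Cfsg.Prelude.Def_Spor_Mathieu

/-!
# Packed permutations of the 24 points, and the two-point stabiliser `M22`.
-/

set_option autoImplicit false
set_option maxRecDepth 100000

namespace Cfsg.Agent.Lib.M22B

open Cfsg Cfsg.Agent.Lib.Golay Cfsg.Agent.Lib.M24X MulAction

/-- The `i`-th field of a packed permutation. -/
def ge (p i : ℕ) : ℕ := Nat.mod (Nat.div p (Nat.pow 32 i)) 32

/-- Packing a list. -/
def pk : List ℕ → ℕ
  | [] => 0
  | v :: l => v + 32 * pk l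

theorem ge_lt (p i : ℕ) : ge p i < 32 := Nat.mod_lt _ (by norm_num)

theorem lk_eq (l : List ℕ) (k : ℕ) : lk l k = l.getD k 0 := by
  induction l generalizing k with
  | nil => simp [lk]
  | cons a l ih =>
    cases k with
    | zero => simp [lk]
    | succ k => simpa [lk] using ih k

theorem ge_pk : ∀ (l : List ℕ), (∀ v ∈ l, v < 32) → ∀ i, i < l.length → ge (pk l) i = lk l i
  | [], _, i, hi => by simp at hi
  | v :: l, h, 0, _ => by
      have hv : v < 32 := h v (by simp)
      show (v + 32 * pk l) / 32 ^ 0 % 32 = v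
      simp only [pow_zero, Nat.div_one]
      omega
  | v :: l, h, i + 1, hi => by
      have ih := ge_pk l (fun w hw => h w (by simp [hw])) i (by simpa using hi)
      have hv : v < 32 := h v (by simp)
      show (v + 32 * pk l) / 32 ^ (i + 1) % 32 = lk l i
      rw [← ih]
      show _ = pk l / 32 ^ i % 32
      rw [pow_succ', ← Nat.div_div_eq_div_mul]
      have : (v + 32 * pk l) / 32 = pk l := by omega
      rw [this]

/-- Unpacking. -/
def unp (p : ℕ) : List ℕ := (List.range 24).map (ge p)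

theorem lk_map_range (f : ℕ → ℕ) {n k : ℕ} (hk : k < n) : lk ((List.range n).map f) k = f k := by
  rw [lk_eq, List.getD_eq_getElem _ _ (by simpa using hk)]
  simp

theorem lk_unp (p : ℕ) {k : ℕ} (hk : k < 24) : lk (unp p) k = ge p k := lk_map_range _ hk

/-- Composition of packed permutations. -/
def comp (a b : ℕ) : ℕ :=
  ge a (ge b 0) + 32 * (ge a (ge b 1) + 32 * (ge a (ge b 2) + 32 * (ge a (ge b 3) + 32 * (
  ge a (ge b 4) + 32 * (ge a (ge b 5) + 32 * (ge a (ge b 6) + 32 * (ge a (ge b 7) + 32 * (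
  ge a (ge b 8) + 32 * (ge a (ge b 9) + 32 * (ge a (ge b 10) + 32 * (ge a (ge b 11) + 32 * (
  ge a (ge b 12) + 32 * (ge a (ge b 13) + 32 * (ge a (ge b 14) + 32 * (ge a (ge b 15) + 32 * (
  ge a (ge b 16) + 32 * (ge a (ge b 17) + 32 * (ge a (ge b 18) + 32 * (ge a (ge b 19) + 32 * (
  ge a (ge b 20) + 32 * (ge a (ge b 21) + 32 * (ge a (ge b 22) + 32 * (ge a (ge b 23) + 32 * 0
  )))))))))))))))))))))))

theorem comp_eq (a b : ℕ) : comp a b = pk ((List.range 24).map fun i => ge a (ge b i)) := rfl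

theorem ge_comp (a b : ℕ) {i : ℕ} (hi : i < 24) : ge (comp a b) i = ge a (ge b i) := by
  rw [comp_eq, ge_pk _ _ _ (by simpa using hi), lk_map_range _ hi]
  intro v hv
  obtain ⟨j, -, rfl⟩ := List.mem_map.mp hv
  exact ge_lt _ _

theorem comp_congr {a b c d : ℕ} (h : ∀ i < 24, ge a (ge b i) = ge c (ge d i)) :
    comp a b = comp c d := by
  rw [comp_eq, comp_eq]
  congr 1
  apply List.map_congr_left
  intro i hi
  exact h i (by simpa using hi)

/-- The permutation of a packed number. -/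
noncomputable def Phi (p : ℕ) : Equiv.Perm GolayPt := perm (unp p)

/-- Validity. -/
def Val (p : ℕ) : Prop := isPerm (unp p) = true

theorem val_lt {p i : ℕ} (h : Val p) (hi : i < 24) : ge p i < 24 := by
  rw [← lk_unp p hi]
  exact isPerm_lt h hi

theorem unp_comp {a b : ℕ} (hb : Val b) : unp (comp a b) = mulL (unp a) (unp b) := by
  simp only [unp, mulL, List.map_map]
  apply List.map_congr_left
  intro i hi
  have hi' : i < 24 := by simpa using hi
  simp only [Function.comp]
  rw [ge_comp _ _ hi', lk_map_range _ (val_lt hb hi')]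

theorem val_comp {a b : ℕ} (ha : Val a) (hb : Val b) : Val (comp a b) := by
  unfold Val
  rw [unp_comp hb]
  exact isPerm_mulL ha hb

theorem Phi_comp {a b : ℕ} (ha : Val a) (hb : Val b) : Phi (comp a b) = Phi a * Phi b := by
  unfold Phi
  rw [unp_comp hb, perm_mulL ha hb]

theorem Phi_pt {p i : ℕ} (h : Val p) (hi : i < 24) : Phi p (pt i) = pt (ge p i) := by
  unfold Phi
  rw [perm_pt h hi, lk_unp p hi]

theorem comp_of_mul_eq {a b c d : ℕ} (ha : Val a) (hb : Val b) (hc : Val c) (hd : Val d)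
    (h : Phi a * Phi b = Phi c * Phi d) : comp a b = comp c d := by
  apply comp_congr
  intro i hi
  have h1 := congrArg (fun f : Equiv.Perm GolayPt => idx (f (pt i))) h
  simp only [Equiv.Perm.mul_apply] at h1
  rw [Phi_pt hb hi, Phi_pt hd hi, Phi_pt ha (val_lt hb hi), Phi_pt hc (val_lt hd hi),
    idx_pt (val_lt ha (val_lt hb hi)), idx_pt (val_lt hc (val_lt hd hi))] at h1
  exact h1

/-- Forcing a number. -/
def hLet (x : ℕ) (f : ℕ → Bool) : Bool := Nat.rec (f 0) (fun n _ => f (Nat.succ n)) x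

theorem hLet_eq (x : ℕ) (f : ℕ → Bool) : hLet x f = f x := by
  cases x <;> rfl

/-- The packed identity. -/
def idp : ℕ := pk (List.range 24)

theorem unp_idp : unp idp = idL := by decide +kernel

theorem val_idp : Val idp := by
  unfold Val
  rw [unp_idp]
  decide +kernel

theorem Phi_idp : Phi idp = 1 := by
  unfold Phi
  rw [unp_idp]
  exact perm_idL

theorem beq_imp {x y : ℕ} {c : Bool} (h : (!(Nat.beq x y) || c) = true) (hxy : x = y) : c = true := by
  subst hxy
  simpa using h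

/-- Membership test in `M22`. -/
def inB (p : ℕ) : Bool :=
  isPerm (unp p) && autCheck (unp p) && Nat.beq (ge p 23) 23 && Nat.beq (ge p 0) 0

theorem mem_M22_iff (x : Equiv.Perm GolayPt) :
    x ∈ Spor.M22 ↔ x ∈ M24 ∧ x (pt 23) = pt 23 ∧ x (pt 0) = pt 0 := by
  have h23 : pt 23 = (none : GolayPt) := by decide
  have h0 : pt 0 = (some 0 : GolayPt) := by decide
  rw [h23, h0]
  simp only [Spor.M22, Spor.M23, Subgroup.mem_inf, mem_stabilizer_iff, Equiv.Perm.smul_def]
  tauto

theorem mem_stab_iff (x : Equiv.Perm GolayPt) : x ∈ Spor.M22 ↔ x ∈ stabL M24 [23, 0] := by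
  rw [mem_M22_iff, mem_stabL]
  simp

theorem val_of_inB {p : ℕ} (h : inB p = true) : Val p := by
  simp only [inB, Bool.and_eq_true] at h
  exact h.1.1.1

theorem mem_of_inB {p : ℕ} (h : inB p = true) : Phi p ∈ Spor.M22 := by
  simp only [inB, Bool.and_eq_true] at h
  rw [mem_M22_iff]
  refine ⟨perm_mem_M24 h.1.1.1 h.1.1.2, ?_, ?_⟩
  · rw [Phi_pt h.1.1.1 (by norm_num), Nat.eq_of_beq_eq_true h.1.2]
  · rw [Phi_pt h.1.1.1 (by norm_num), Nat.eq_of_beq_eq_true h.2]

theorem up2 : ∀ g ∈ stabL M24 [23, 0], ∃ t ∈ m24T2, g (pt 1) = perm t (pt 1) :=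
  up_of_cand T2_check (by decide) (by norm_num) (by simp) cand2 (by decide +kernel)

theorem dec2 {g : Equiv.Perm GolayPt} (hg : g ∈ stabL M24 [23, 0]) :
    ∃ y ∈ m24T2, ∃ z ∈ m24T3, ∃ a ∈ m24T4, ∃ b ∈ m24T5, ∃ c ∈ m24T6,
      isPerm y = true ∧ isPerm (mulL z (mulL a (mulL b c))) = true ∧
      g = perm y * perm (mulL z (mulL a (mulL b c))) := by
  obtain ⟨y, hy, hpy, h⟩ := chain_step T2_check (by decide) up2 hg
  obtain ⟨z, hz, a, ha, b, hb, c, hc, hp, h2⟩ := dec3 h
  refine ⟨y, hy, z, hz, a, ha, b, hb, c, hc, hpy, hp, ?_⟩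
  rw [← h2]
  simp

end Cfsg.Agent.Lib.M22B
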