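import Cfsg.Agent.Lib.M22B.Chk

/-!
# Soundness of the exhaustive check.
-/

set_option autoImplicit false
set_option maxRecDepth 100000

namespace Cfsg.Agent.Lib.M22B

open Cfsg Cfsg.Agent.Lib.Golay Cfsg.Agent.Lib.M24X

theorem T2p_eq : m24T2.map pk = T2p := by decide +kernel
theorem T3p_eq : m24T3.map pk = T3p := by decide +kernel
theorem T4p_eq : m24T4.map pk = T4p := by decide +kernel
theorem S5p_eq : (m24T5.flatMap fun b => m24T6.map fun c => pk (mulL b c)) = S5p := by decide +kernel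

theorem T2_ok : ∀ t ∈ m24T2, unp (pk t) = t ∧ isPerm t = true := by decide +kernel
theorem T3_ok : ∀ t ∈ m24T3, unp (pk t) = t ∧ isPerm t = true := by decide +kernel
theorem T4_ok : ∀ t ∈ m24T4, unp (pk t) = t ∧ isPerm t = true := by decide +kernel
theorem T5_ok : ∀ t ∈ m24T5, isPerm t = true := by decide +kernel
theorem T6_ok : ∀ t ∈ m24T6, isPerm t = true := by decide +kernel
theorem S5_ok : ∀ b ∈ m24T5, ∀ c ∈ m24T6, unp (pk (mulL b c)) = mulL b c := by decide +kernel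

theorem S5_fix : ∀ s ∈ S5p, ge s 1 = 1 ∧ ge s 2 = 2 ∧ ge s 3 = 3 := by decide +kernel

theorem pack_dec {g : Equiv.Perm GolayPt} (hg : g ∈ Spor.M22) :
    ∃ y ∈ T2p, ∃ z ∈ T3p, ∃ a ∈ T4p, ∃ s ∈ S5p, Val y ∧ Val z ∧ Val a ∧ Val s ∧
      g = Phi (comp (comp (comp y z) a) s) := by
  obtain ⟨y, hy, z, hz, a, ha, b, hb, c, hc, hpy, hp, he⟩ := dec2 ((mem_stab_iff g).mp hg)
  have hy2 := T2_ok y hy
  have hz2 := T3_ok z hz
  have ha2 := T4_ok a ha
  have hb2 := T5_ok b hb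
  have hc2 := T6_ok c hc
  have hbc := S5_ok b hb c hc
  have hpbc : isPerm (mulL b c) = true := isPerm_mulL hb2 hc2
  have vy : Val (pk y) := by unfold Val; rw [hy2.1]; exact hy2.2
  have vz : Val (pk z) := by unfold Val; rw [hz2.1]; exact hz2.2
  have va : Val (pk a) := by unfold Val; rw [ha2.1]; exact ha2.2
  have vs : Val (pk (mulL b c)) := by unfold Val; rw [hbc]; exact hpbc
  refine ⟨pk y, T2p_eq ▸ List.mem_map.mpr ⟨y, hy, rfl⟩, pk z, T3p_eq ▸ List.mem_map.mpr ⟨z, hz, rfl⟩,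
    pk a, T4p_eq ▸ List.mem_map.mpr ⟨a, ha, rfl⟩, pk (mulL b c), ?_, vy, vz, va, vs, ?_⟩
  · rw [← S5p_eq]
    exact List.mem_flatMap.mpr ⟨b, hb, List.mem_map.mpr ⟨c, hc, rfl⟩⟩
  · rw [Phi_comp (val_comp (val_comp vy vz) va) vs, Phi_comp (val_comp vy vz) va, Phi_comp vy vz, he]
    unfold Phi
    rw [hy2.1, hz2.1, ha2.1, hbc]
    rw [perm_mulL hz2.2 (isPerm_mulL ha2.2 hpbc), perm_mulL ha2.2 hpbc]
    simp only [mul_assoc]

theorem pre_sound {v s r r' : ℕ} (hs : s ∈ S5p) (hr1 : ge r 1 ∈ [1, 2, 3]) (hr2 : ge r 2 ∈ [1, 2, 3])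
    (h : comp (comp v s) r = comp r' (comp v s)) : pre r r' v = true := by
  obtain ⟨s1, s2, s3⟩ := S5_fix s hs
  have hfix : ∀ q ∈ [1, 2, 3], ge s q = q := by
    intro q hq
    simp only [List.mem_cons, List.not_mem_nil, or_false] at hq
    rcases hq with rfl | rfl | rfl <;> assumption
  have hlt : ∀ q ∈ [1, 2, 3], q < 24 := by
    intro q hq
    simp only [List.mem_cons, List.not_mem_nil, or_false] at hq
    omega
  have key : ∀ i, i < 24 → ge s i = i → ge r i ∈ [1, 2, 3] →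
      ge v (ge r i) = ge r' (ge v i) := by
    intro i hi hsi hri
    have e1 : ge (comp (comp v s) r) i = ge (comp r' (comp v s)) i := by rw [h]
    rw [ge_comp _ _ hi, ge_comp _ _ hi, ge_comp _ _ (hlt _ hri), ge_comp _ _ hi, hfix _ hri, hsi] at e1
    exact e1
  unfold pre
  simp only [Bool.and_eq_true, Nat.beq_eq]
  exact ⟨key 1 (by norm_num) s1 hr1, key 2 (by norm_num) s2 hr2⟩

theorem Rs_ok : ∀ e ∈ Rs, inB e.1 = true ∧ ge e.1 1 ∈ [1, 2, 3] ∧ ge e.1 2 ∈ [1, 2, 3] := by decide +kernel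
theorem NP_ok : ∀ e ∈ NP, inB e.1 = true ∧ inB e.2 = true ∧ ge e.1 1 ∈ [1, 2, 3] ∧ ge e.1 2 ∈ [1, 2, 3] := by
  decide +kernel
theorem Tg_ok : ∀ e ∈ Tg, comp e.1 idp = e.1 ∧ ge e.1 1 = e.2.1 ∧ ge e.1 2 = e.2.2.1 ∧ inB e.1 = true := by
  decide +kernel

/-- The outcome of the scan at an element. -/
theorem chk_of {g : Equiv.Perm GolayPt} (hg : g ∈ Spor.M22) (hall : ∀ y ∈ T2p, scan2 y = true) :
    ∃ v s, Val v ∧ Val s ∧ s ∈ S5p ∧ g = Phi (comp v s) ∧ preChk v = true ∧ sqChk v s = true := by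
  obtain ⟨y, hy, z, hz, a, ha, s, hs, vy, vz, va, vs, he⟩ := pack_dec hg
  have h1 := hall y hy
  unfold scan2 at h1
  have h2 := List.all_eq_true.mp h1 z hz
  rw [hLet_eq] at h2
  unfold scan3 at h2
  have h3 := List.all_eq_true.mp h2 a ha
  rw [hLet_eq] at h3
  simp only [Bool.and_eq_true] at h3
  exact ⟨_, s, val_comp (val_comp vy vz) va, vs, hs, he, h3.1, List.all_eq_true.mp h3.2 s hs⟩

section
variable (hall : ∀ y ∈ T2p, scan2 y = true)
include hall

theorem sq_sound {g : Equiv.Perm GolayPt} (hg : g ∈ Spor.M22) {e : ℕ × ℕ × ℕ × List ℕ} (he : e ∈ Tg)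
    (h : g * g = Phi e.1) : ∃ p ∈ e.2.2.2, g = Phi p := by
  obtain ⟨v, s, vv, vs, hs, rfl, -, hc⟩ := chk_of hg hall
  obtain ⟨t0, t1, t2, t3⟩ := Tg_ok e he
  have vx := val_comp vv vs
  have vt := val_of_inB t3
  have hcomp : comp (comp v s) (comp v s) = e.1 := by
    rw [comp_of_mul_eq vx vx vt val_idp (by rw [h, Phi_idp, mul_one]), t0]
  have key : ∀ i, i < 24 → ge v (ge s (ge v (ge s i))) = ge e.1 i := by
    intro i hi
    rw [← hcomp, ge_comp _ _ hi, ge_comp v s hi, ge_comp _ _ (val_lt vv (val_lt vs hi))]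
  unfold sqChk at hc
  rw [hLet_eq] at hc
  have h1 := List.all_eq_true.mp hc e he
  have h2 := beq_imp h1 ((key 1 (by norm_num)).trans t1)
  unfold sqRare at h2
  have h3 := beq_imp h2 ((key 2 (by norm_num)).trans t2)
  rw [hLet_eq] at h3
  have h4 := beq_imp h3 hcomp
  exact ⟨_, memB_iff.mp h4, rfl⟩

theorem cent_sound {g : Equiv.Perm GolayPt} (hg : g ∈ Spor.M22) {e : ℕ × List ℕ} (he : e ∈ Rs)
    (h : g * Phi e.1 = Phi e.1 * g) : ∃ p ∈ e.2, g = Phi p := by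
  obtain ⟨v, s, vv, vs, hs, rfl, hc, -⟩ := chk_of hg hall
  obtain ⟨t0, t1, t2⟩ := Rs_ok e he
  have vx := val_comp vv vs
  have vt := val_of_inB t0
  have hcomp : comp (comp v s) e.1 = comp e.1 (comp v s) := comp_of_mul_eq vx vt vt vx h
  have hp := pre_sound hs t1 t2 hcomp
  unfold preChk at hc
  simp only [Bool.and_eq_true] at hc
  have h1 := List.all_eq_true.mp hc.1 e he
  unfold centT at h1
  rw [hp] at h1
  simp only [Bool.not_true, Bool.false_or] at h1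
  have h2 := List.all_eq_true.mp h1 s hs
  rw [hLet_eq] at h2
  have h3 := beq_imp h2 hcomp
  exact ⟨_, memB_iff.mp h3, rfl⟩

theorem nc_sound {g : Equiv.Perm GolayPt} (hg : g ∈ Spor.M22) {e : ℕ × ℕ} (he : e ∈ NP) :
    g * Phi e.1 ≠ Phi e.2 * g := by
  intro h
  obtain ⟨v, s, vv, vs, hs, rfl, hc, -⟩ := chk_of hg hall
  obtain ⟨t0, t1, t2, t3⟩ := NP_ok e he
  have vx := val_comp vv vs
  have vt := val_of_inB t0
  have vt' := val_of_inB t1
  have hcomp : comp (comp v s) e.1 = comp e.2 (comp v s) := comp_of_mul_eq vx vt vt' vx h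
  have hp := pre_sound hs t2 t3 hcomp
  unfold preChk at hc
  simp only [Bool.and_eq_true] at hc
  have h1 := List.all_eq_true.mp hc.2 e he
  unfold ncT at h1
  rw [hp] at h1
  simp only [Bool.not_true, Bool.false_or] at h1
  have h2 := List.all_eq_true.mp h1 s hs
  rw [hLet_eq, hcomp] at h2
  have : Nat.beq (comp e.2 (comp v s)) (comp e.2 (comp v s)) = true := Nat.beq_refl _
  rw [this] at h2
  simp at h2

end

end Cfsg.Agent.Lib.M22B
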