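import Cfsg.Agent.Lib.M22B.TabDefs

set_option autoImplicit false
set_option maxRecDepth 100000
set_option maxHeartbeats 0

namespace Cfsg.Agent.Lib.M22B

theorem tb0_0 : Tab0_0.all (entOK (jE 0).2.2.2.1 (jE 0).2.2.2.2) = true := by decide +kernel

theorem tb0_4 : Tab0_4.all (entOK (jE 0).2.2.2.1 (jE 0).2.2.2.2) = true := by decide +kernel

theorem tb1_0 : Tab1_0.all (entOK (jE 1).2.2.2.1 (jE 1).2.2.2.2) = true := by decide +kernel

theorem tb2_3 : Tab2_3.all (entOK (jE 2).2.2.2.1 (jE 2).2.2.2.2) = true := by decide +kernel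

theorem tb2_7 : Tab2_7.all (entOK (jE 2).2.2.2.1 (jE 2).2.2.2.2) = true := by decide +kernel

theorem tb5_2 : Tab5_2.all (entOK (jE 5).2.2.2.1 (jE 5).2.2.2.2) = true := by decide +kernel

theorem tb5_6 : Tab5_6.all (entOK (jE 5).2.2.2.1 (jE 5).2.2.2.2) = true := by decide +kernel

theorem tb7_1 : Tab7_1.all (entOK (jE 7).2.2.2.1 (jE 7).2.2.2.2) = true := by decide +kernel

theorem tb7_5 : Tab7_5.all (entOK (jE 7).2.2.2.1 (jE 7).2.2.2.2) = true := by decide +kernel

theorem tb8_1 : Tab8_1.all (entOK (jE 8).2.2.2.1 (jE 8).2.2.2.2) = true := by decide +kernel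

theorem tb8_5 : Tab8_5.all (entOK (jE 8).2.2.2.1 (jE 8).2.2.2.2) = true := by decide +kernel

theorem tb10_1 : Tab10_1.all (entOK (jE 10).2.2.2.1 (jE 10).2.2.2.2) = true := by decide +kernel

theorem tb10_5 : Tab10_5.all (entOK (jE 10).2.2.2.1 (jE 10).2.2.2.2) = true := by decide +kernel

theorem tb11_1 : Tab11_1.all (entOK (jE 11).2.2.2.1 (jE 11).2.2.2.2) = true := by decide +kernel

theorem tb11_5 : Tab11_5.all (entOK (jE 11).2.2.2.1 (jE 11).2.2.2.2) = true := by decide +kernel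

end Cfsg.Agent.Lib.M22B
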