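import Cfsg.Agent.Lib.M22B.Sound
import Cfsg.Agent.Lib.M22B.Tabs

/-!
# The class labels of the square roots.
-/

set_option autoImplicit false
set_option maxRecDepth 100000

namespace Cfsg.Agent.Lib.M22B

open Cfsg Cfsg.Agent.Lib.Golay Cfsg.Agent.Lib.M24X

/-- Powers of packed permutations. -/
def powP (t : ℕ) : ℕ → ℕ
  | 0 => idp
  | n + 1 => comp (powP t n) t

/-- The packed identity as a literal. -/
def idn : ℕ := 984818244535754528103549039458486304

theorem idn_eq : idn = idp := by decide +kernel

/-- The check of an entry of a label table. -/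
def entOK (tg V : ℕ) (e : ℕ × ℕ × ℕ) : Bool :=
  inB e.1 && inB e.2.2 && Nat.beq (comp e.1 e.1) tg &&
    Nat.beq (comp e.2.2 (Rp.getD e.2.1 0)) (comp (comp e.1 V) e.2.2) && Nat.blt e.2.1 12 &&
    Nat.beq (comp e.1 idn) e.1

/-- The data of a table. -/
def jE (j : ℕ) : ℕ × ℕ × ℕ × ℕ × ℕ := Jd.getD j (0, 0, 0, 0, 0)

/-- The odd structure constants. -/
def Od : List (List ℕ) := [[0], [0, 5], [10, 11], [5], [], [], [10, 11], [], [], [], [], []]

/-- The orders of the class representatives. -/
def ordL : List ℕ := [1, 2, 3, 4, 4, 5, 6, 7, 7, 8, 11, 11]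

/-- The class sizes of the class representatives. -/
def sizeL : List ℕ := [1, 1155, 12320, 13860, 27720, 88704, 36960, 63360, 63360, 55440, 40320, 40320]

/-- Strictly ascending lists. -/
def ascB : List ℕ → Bool
  | a :: b :: l => Nat.blt a b && ascB (b :: l)
  | _ => true

theorem ascB_spec : ∀ (l : List ℕ) (a : ℕ), ascB (a :: l) = true → (∀ x ∈ l, a < x) ∧ (a :: l).Nodup
  | [], a, _ => by simp
  | b :: l, a, h => by
    have h' : Nat.blt a b = true ∧ ascB (b :: l) = true := by simpa [ascB] using h
    obtain ⟨h1, h2⟩ := ascB_spec l b h'.2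
    have hab : a < b := by simpa [Nat.blt_eq] using h'.1
    have hlt : ∀ x ∈ b :: l, a < x := by
      intro x hx
      rcases List.mem_cons.mp hx with rfl | hx
      · exact hab
      · exact hab.trans (h1 x hx)
    refine ⟨hlt, List.nodup_cons.mpr ⟨fun hm => lt_irrefl _ (hlt a hm), h2⟩⟩

theorem ascB_nodup {l : List ℕ} (h : ascB l = true) : l.Nodup := by
  cases l with
  | nil => simp
  | cons a l => exact (ascB_spec l a h).2

/-- The count of labels. -/
def cnt (j i : ℕ) : ℕ := ((Tab.getD j []).filter fun e => Nat.beq e.2.1 i).length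

end Cfsg.Agent.Lib.M22B
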